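-- Project TSO (S5980): package [WITI] (helper24).
import Mathlib
import Cfsg.Agent.Lib.Helper57.TSO.Defs
import Cfsg.Agent.Lib.Helper40.Tensor
import Cfsg.Agent.Lib.Helper13.Symp
import Cfsg.Agent.Lib.Helper94.Symp

set_option autoImplicit false

namespace Cfsg.Agent.Lib.Helper24.TSO

open Matrix

universe u

theorem pkgWitI : Cfsg.Agent.Lib.Helper57.TSO.PkgWitI.{u} := by
  intro F _ _ h2 d hd
  classical
  set δ : Fin d → F := fun j => if j.val = 0 then -1 else 1 with hδ
  have hδ2 : ∀ j, δ j * δ j = 1 := by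
    intro j
    simp only [hδ]
    split_ifs <;> ring
  set D : Matrix (Fin d ⊕ Fin d) (Fin d ⊕ Fin d) F := Matrix.diagonal (Sum.elim δ δ) with hD
  have hDD : D * D = 1 := by
    rw [hD, Matrix.diagonal_mul_diagonal]
    rw [← Matrix.diagonal_one]
    congr 1
    funext i
    cases i with
    | inl j => simpa using hδ2 j
    | inr j => simpa using hδ2 j
  let x : GL (Fin d ⊕ Fin d) F := ⟨D, D, hDD, hDD⟩
  have hx : (x : Matrix (Fin d ⊕ Fin d) (Fin d ⊕ Fin d) F) = D := rfl
  refine ⟨x, ?_, ?_, ?_, ?_⟩
  · change ∀ u v, Cfsg.sympForm d F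
      ((x : Matrix (Fin d ⊕ Fin d) (Fin d ⊕ Fin d) F) *ᵥ u)
      ((x : Matrix (Fin d ⊕ Fin d) (Fin d ⊕ Fin d) F) *ᵥ v) = Cfsg.sympForm d F u v
    intro u v
    rw [hx, Helper13.sympForm_eq, Helper13.sympForm_eq]
    apply Finset.sum_congr rfl
    intro i _
    rw [hD, Matrix.mulVec_diagonal, Matrix.mulVec_diagonal, Matrix.mulVec_diagonal,
      Matrix.mulVec_diagonal]
    simp only [Sum.elim_inl, Sum.elim_inr]
    linear_combination (u (Sum.inr i) * v (Sum.inl i) - u (Sum.inl i) * v (Sum.inr i)) * hδ2 i
  · rw [hx, pow_two, hDD]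
  · intro z hz
    rw [hx] at hz
    have h0 := congrFun (congrFun hz (Sum.inl ⟨0, by omega⟩)) (Sum.inl ⟨0, by omega⟩)
    have h1 := congrFun (congrFun hz (Sum.inl ⟨1, by omega⟩)) (Sum.inl ⟨1, by omega⟩)
    simp only [hD, hδ, Matrix.diagonal_apply_eq, Sum.elim_inl, Matrix.smul_apply, Matrix.one_apply_eq,
      smul_eq_mul, mul_one] at h0 h1
    simp only [if_true] at h0
    have h1' : (1 : F) = z := by simpa using h1
    rw [← h1'] at h0
    apply h2
    linear_combination -h0
  · rw [hx]
    have hrows := Helper40.Tensor.rank_le_of_rows (D - 1)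
      {Sum.inl (⟨0, by omega⟩ : Fin d), Sum.inr (⟨0, by omega⟩ : Fin d)} ?_
    · exact hrows.trans Finset.card_le_two
    · intro i hi j
      simp only [Finset.mem_insert, Finset.mem_singleton, not_or] at hi
      rw [Matrix.sub_apply, hD]
      by_cases hij : i = j
      · subst hij
        rw [Matrix.diagonal_apply_eq, Matrix.one_apply_eq]
        cases i with
        | inl k =>
          have hk : k.val ≠ 0 := by
            intro h0
            apply hi.1
            congr 1
            exact Fin.ext h0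
          simp [hδ, hk]
        | inr k =>
          have hk : k.val ≠ 0 := by
            intro h0
            apply hi.2
            congr 1
            exact Fin.ext h0
          simp [hδ, hk]
      · rw [Matrix.diagonal_apply_ne _ hij, Matrix.one_apply_ne hij, sub_zero]

end Cfsg.Agent.Lib.Helper24.TSO
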